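import Cfsg.Agent.H6.BrauerInd
import Cfsg.Agent.H5.ClassFn
import Mathlib.RingTheory.RootsOfUnity.Complex
import Mathlib.FieldTheory.IntermediateField.Adjoin.Algebra

/-!
# Characters afforded by representations over a subfield of `ℂ`; Brauer's splitting field theorem
-/

set_option autoImplicit false

open scoped ComplexConjugate
open Cfsg Module

namespace Cfsg.Agent.H6

variable (K : Type*) [Field K] [Algebra K ℂ] {G : Type*} [Group G]

/-- `χ` is afforded by a representation over the subfield `K` of `ℂ` -/
def IsCharOver (χ : G → ℂ) : Prop :=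
  ∃ (n : ℕ) (ρ : Representation K G (Fin n → K)), χ = fun g => algebraMap K ℂ (ρ.character g)

/-- extension of scalars of a matrix representation -/
noncomputable def extRep {n : ℕ} (ρ : Representation K G (Fin n → K)) :
    Representation ℂ G (Fin n → ℂ) where
  toFun g := Matrix.toLin' ((LinearMap.toMatrix' (ρ g)).map (algebraMap K ℂ))
  map_one' := by
    rw [map_one, Module.End.one_eq_id, LinearMap.toMatrix'_id,
      Matrix.map_one _ (map_zero _) (map_one _), Matrix.toLin'_one]
    rfl
  map_mul' a b := by
    rw [map_mul, LinearMap.toMatrix'_mul, Matrix.map_mul, Matrix.toLin'_mul]; rfl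

theorem toMatrix'_extRep {n : ℕ} (ρ : Representation K G (Fin n → K)) (g : G) (i j : Fin n) :
    LinearMap.toMatrix' (extRep K ρ g) i j = algebraMap K ℂ (LinearMap.toMatrix' (ρ g) i j) := by
  change LinearMap.toMatrix' (Matrix.toLin' _) i j = _
  rw [LinearMap.toMatrix'_toLin']
  rfl

theorem character_extRep {n : ℕ} (ρ : Representation K G (Fin n → K)) (g : G) :
    (extRep K ρ).character g = algebraMap K ℂ (ρ.character g) := by
  have h1 : (extRep K ρ).character g =
      ((LinearMap.toMatrix' (ρ g)).map (algebraMap K ℂ)).trace := Matrix.trace_toLin'_eq _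
  have h2 : ρ.character g = (LinearMap.toMatrix' (ρ g)).trace := by
    rw [← Matrix.trace_toLin'_eq, Matrix.toLin'_toMatrix']; rfl
  rw [h1, h2, AddMonoidHom.map_trace]

variable {K}

theorem IsCharOver.isCharacter {χ : G → ℂ} (h : IsCharOver K χ) : IsCharacter G χ := by
  obtain ⟨n, ρ, rfl⟩ := h
  exact ⟨n, extRep K ρ, funext (character_extRep K ρ)⟩

theorem isCharOver_character {V : Type*} [AddCommGroup V] [Module K V] [FiniteDimensional K V]
    (ρ : Representation K G V) : IsCharOver K (fun g => algebraMap K ℂ (ρ.character g)) :=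
  ⟨finrank K V, H5.transportRep ρ (Module.finBasis K V).equivFun, by
    rw [← Representation.char_iso (H5.transportEquiv ρ _)]⟩

theorem isCharOver_zero : IsCharOver K (0 : G → ℂ) :=
  ⟨0, Representation.trivial K G (Fin 0 → K), by
    ext g
    have : Representation.trivial K G (Fin 0 → K) g = 0 := Subsingleton.elim _ _
    simp [Representation.character, this]⟩

theorem IsCharOver.add {χ ψ : G → ℂ} (h₁ : IsCharOver K χ) (h₂ : IsCharOver K ψ) :
    IsCharOver K (χ + ψ) := by
  obtain ⟨n, ρ, rfl⟩ := h₁
  obtain ⟨m, σ, rfl⟩ := h₂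
  convert isCharOver_character (ρ.prod σ) using 1
  ext g
  simp [H5.character_prod]

theorem IsCharOver.nsmul {χ : G → ℂ} (h : IsCharOver K χ) (n : ℕ) : IsCharOver K (n • χ) := by
  induction n with
  | zero => simpa using isCharOver_zero
  | succ n ih => rw [succ_nsmul]; exact ih.add h

theorem IsCharOver.indFun [Fintype G] (H : Subgroup G) {θ : H → ℂ} (h : IsCharOver K θ) :
    IsCharOver K (indFun H θ) := by
  classical
  have hcl := H5.isClassFunction_of_isCharacter h.isCharacter
  obtain ⟨n, ρ, rfl⟩ := h
  convert isCharOver_character (indRep H ρ) using 1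
  ext g
  rw [character_indRep, indFun_eq_sum_quotient H hcl, map_sum]
  refine Finset.sum_congr rfl (fun a _ => ?_)
  rw [extendByZero_eq_dite]
  split_ifs <;> simp

theorem isCharOver_monoidHom (lam : G →* ℂˣ) (h : ∀ g, (lam g : ℂ) ∈ (algebraMap K ℂ).range) :
    IsCharOver K (fun g => (lam g : ℂ)) := by
  choose f hf using h
  have hinj := (algebraMap K ℂ).injective
  let μ : G →* K :=
    { toFun := f
      map_one' := hinj (by simp [hf])
      map_mul' := fun a b => hinj (by simp [hf]) }
  convert isCharOver_character (H5.linearRep μ.toHomUnits) using 1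
  ext g
  rw [H5.character_linearRep]
  exact (hf g).symm

theorem classInner_charOver [Fintype G] {V W : Type*} [AddCommGroup V] [Module K V]
    [FiniteDimensional K V] [AddCommGroup W] [Module K W] [FiniteDimensional K W]
    (ρ : Representation K G V) (σ : Representation K G W) :
    classInner (fun g => algebraMap K ℂ (ρ.character g)) (fun g => algebraMap K ℂ (σ.character g))
      = finrank K (σ.IntertwiningMap ρ) := by
  have hne : (Nat.card G : K) ≠ 0 := fun h =>
    card_ne_zero_complex G (by simpa using congrArg (algebraMap K ℂ) h)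
  have : Invertible (Nat.card G : K) := invertibleOfNonzero hne
  rw [H5.classInner_eq_sum_inv _ (isCharOver_character σ).isCharacter]
  have h := congrArg (algebraMap K ℂ)
    (Representation.card_inv_mul_sum_char_mul_char_eq_finrank σ ρ)
  simpa [map_sum] using h

/-- every character over `K` is a sum of characters of irreducible `K`-representations -/
theorem isCharOver_induction [Finite G] {P : (G → ℂ) → Prop} (h0 : P 0)
    (hirr : ∀ (n : ℕ) (ρ : Representation K G (Fin n → K)), ρ.IsIrreducible →
      P (fun g => algebraMap K ℂ (ρ.character g)))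
    (hadd : ∀ χ ψ, IsCharOver K χ → IsCharOver K ψ → P χ → P ψ → P (χ + ψ))
    {χ : G → ℂ} (h : IsCharOver K χ) : P χ := by
  obtain ⟨n, hn⟩ := H5.exists_nat_degree h.isCharacter
  induction n using Nat.strong_induction_on generalizing χ with
  | _ n ih =>
  have hc := h.isCharacter
  obtain ⟨m, ρ, rfl⟩ := h
  have hmn : m = n := by simpa using hn
  subst hmn
  by_cases hρ : ρ.IsIrreducible
  · exact hirr _ ρ hρ
  rcases Nat.eq_zero_or_pos m with rfl | hm
  · rwa [H5.eq_zero_of_degree_eq_zero hc (by simp)]
  have : NeZero (Nat.card G : K) := ⟨fun h =>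
    card_ne_zero_complex G (by simpa using congrArg (algebraMap K ℂ) h)⟩
  have hne : (⊥ : Subrepresentation ρ) ≠ ⊤ := by
    intro h'
    have : Nonempty (Fin m) := ⟨⟨0, hm⟩⟩
    exact (bot_ne_top (α := Submodule K (Fin m → K))) (congrArg Subrepresentation.toSubmodule h')
  have : Nontrivial (Subrepresentation ρ) := ⟨⊥, ⊤, hne⟩
  obtain ⟨U, hU0, hU1⟩ : ∃ U : Subrepresentation ρ, U ≠ ⊥ ∧ U ≠ ⊤ := by
    by_contra! hc
    exact hρ ⟨fun U => (eq_or_ne U ⊥).imp_right (hc U)⟩
  obtain ⟨U', hU'⟩ := exists_isCompl U
  have hc := H5.isCompl_toSubmodule hU'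
  have e : (fun g => algebraMap K ℂ (ρ.character g)) =
      (fun g => algebraMap K ℂ (U.toRepresentation.character g)) +
      (fun g => algebraMap K ℂ (U'.toRepresentation.character g)) := by
    ext g
    rw [H5.character_eq_add_of_isCompl U U' hc]
    simp
  rw [e]
  have hsum := Submodule.finrank_add_eq_of_isCompl hc
  have h1 : finrank K U.toSubmodule < finrank K (Fin m → K) :=
    Submodule.finrank_lt fun h => hU1 (Subrepresentation.toSubmodule_injective h)
  have h2 : 0 < finrank K U.toSubmodule := by
    rw [Nat.pos_iff_ne_zero, Ne, Submodule.finrank_eq_zero]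
    exact fun h => hU0 (Subrepresentation.toSubmodule_injective h)
  simp only [finrank_fintype_fun_eq_card, Fintype.card_fin] at hsum h1
  refine hadd _ _ (isCharOver_character _) (isCharOver_character _)
    (ih _ h1 (isCharOver_character _) (by simp))
    (ih (finrank K U'.toSubmodule) (by omega) (isCharOver_character _) (by simp))

/-- cancellation: if `χ` is a complex character and `ψ`, `χ + ψ` are afforded over `K`, so
is `χ`. -/
theorem isCharOver_of_add [Finite G] {ψ : G → ℂ} (hψ : IsCharOver K ψ) :
    ∀ χ : G → ℂ, IsCharacter G χ → IsCharOver K (χ + ψ) → IsCharOver K χ := by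
  have := Fintype.ofFinite G
  have : NeZero (Nat.card G : K) := ⟨fun h =>
    card_ne_zero_complex G (by simpa using congrArg (algebraMap K ℂ) h)⟩
  refine isCharOver_induction
    (P := fun ψ => ∀ χ : G → ℂ, IsCharacter G χ → IsCharOver K (χ + ψ) → IsCharOver K χ)
    (fun χ _ h => by simpa using h) ?_ ?_ hψ
  · intro n σ hσ χ hχ h
    obtain ⟨m, ρ, hρ⟩ := h
    have hφ := (isCharOver_character σ).isCharacter
    set φ : G → ℂ := fun g => algebraMap K ℂ (σ.character g) with hφd
    have hφ0 : φ ≠ 0 := by
      intro h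
      have := congrFun h 1
      simp only [hφd, Representation.char_one, map_natCast, Pi.zero_apply, Nat.cast_eq_zero] at this
      exact (H5.finrank_pos_of_isIrreducible σ).ne' this
    have h1 := classInner_charOver ρ σ
    rw [← hρ, H5.classInner_add_left] at h1
    obtain ⟨a, ha⟩ := H5.exists_nat_classInner hχ hφ
    obtain ⟨b, hb⟩ := H5.exists_nat_classInner hφ hφ
    have hb0 : b ≠ 0 := by
      rintro rfl
      exact hφ0 (H5.classInner_self_eq_zero.1 (by rw [hb, Nat.cast_zero]))
    rw [ha, hb] at h1
    have h2 : a + b = finrank K (σ.IntertwiningMap ρ) := by exact_mod_cast h1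
    have : Nontrivial (σ.IntertwiningMap ρ) := Module.nontrivial_of_finrank_pos (R := K) (by omega)
    obtain ⟨f, hf⟩ := exists_ne (0 : σ.IntertwiningMap ρ)
    have hinj := (Representation.IsIrreducible.injective_or_eq_zero f).resolve_right hf
    obtain ⟨U', hU'⟩ := exists_isCompl f.range
    have hc := H5.isCompl_toSubmodule hU'
    have e : σ.Equiv f.range.toRepresentation :=
      Representation.Equiv.mk (LinearEquiv.ofInjective f.toLinearMap hinj) fun g => by
        ext v
        exact congrFun (congrArg Subtype.val (Subtype.ext (f.isIntertwining _ _ g _) :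
          (⟨_, _⟩ : f.range.toSubmodule) = ⟨_, _⟩)) _
    convert isCharOver_character U'.toRepresentation using 1
    ext g
    have h3 := congrFun hρ g
    rw [H5.character_eq_add_of_isCompl _ U' hc, ← Representation.char_iso e] at h3
    simp only [Pi.add_apply, map_add, hφd] at h3
    linear_combination h3
  · intro a b ha _ h1 h2 χ hχ h
    exact h1 χ hχ (h2 _ (H5.isCharacter_add hχ ha.isCharacter) (by rwa [add_assoc]))

/-- If `K` contains the values of all linear characters of subgroups of `G`, then every character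
of `G` is afforded over `K`. -/
theorem isCharOver_of_forall_monoidHom [Finite G]
    (hK : ∀ (E : Subgroup G) (lam : E →* ℂˣ) (e : E), (lam e : ℂ) ∈ (algebraMap K ℂ).range)
    {χ : G → ℂ} (hχ : IsCharacter G χ) : IsCharOver K χ := by
  have := Fintype.ofFinite G
  have key : ∀ f ∈ Submodule.span ℤ (elemLinInd G),
      ∃ a b, IsCharOver K a ∧ IsCharOver K b ∧ f + b = a := by
    intro f hf
    induction hf using Submodule.span_induction with
    | zero => exact ⟨0, 0, isCharOver_zero, isCharOver_zero, by simp⟩
    | add f g _ _ hf hg =>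
      obtain ⟨a, b, ha, hb, h⟩ := hf
      obtain ⟨c, d, hc, hd, h'⟩ := hg
      exact ⟨a + c, b + d, ha.add hc, hb.add hd, by rw [← h, ← h']; abel⟩
    | smul c f _ hf =>
      obtain ⟨a, b, ha, hb, h⟩ := hf
      obtain ⟨n, rfl | rfl⟩ := c.eq_nat_or_neg
      · exact ⟨n • a, n • b, ha.nsmul n, hb.nsmul n, by rw [← h]; simp⟩
      · exact ⟨n • b, n • a, hb.nsmul n, ha.nsmul n, by rw [← h]; simp⟩
    | mem f hf =>
      obtain ⟨E, lam, -, rfl⟩ := hf
      exact ⟨_, 0, (isCharOver_monoidHom lam (hK E lam)).indFun E, isCharOver_zero, add_zero _⟩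
  obtain ⟨a, b, ha, hb, h⟩ := key χ (mem_span_elemLinInd_of_isCharacter hχ)
  exact isCharOver_of_add hb χ hχ (h ▸ ha)

/-- **Brauer's splitting field theorem** -/
theorem isCharOver_of_isPrimitiveRoot [Finite G] {ζ : ℂ} {m : ℕ} (hζ : IsPrimitiveRoot ζ m)
    (hm : m ≠ 0) (hG : ∀ g : G, g ^ m = 1) (hK : ζ ∈ (algebraMap K ℂ).range) {χ : G → ℂ}
    (hχ : IsCharacter G χ) : IsCharOver K χ := by
  refine isCharOver_of_forall_monoidHom (fun E lam e => ?_) hχ
  have : NeZero m := ⟨hm⟩
  have he : e ^ m = 1 := Subtype.ext (hG e)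
  obtain ⟨i, -, hi⟩ := hζ.eq_pow_of_pow_eq_one (ξ := (lam e : ℂ)) (by
    rw [← Units.val_pow_eq_pow_val, ← map_pow, he, map_one, Units.val_one])
  rw [← hi]
  exact Subring.pow_mem _ hK i

theorem exists_equiv_extRep [Finite G] {n : ℕ} (ρ : Representation ℂ G (Fin n → ℂ))
    (h : IsCharOver K ρ.character) :
    ∃ τ : Representation K G (Fin n → K), Nonempty (ρ.Equiv (extRep K τ)) := by
  obtain ⟨m, τ, h⟩ := h
  have hmn : n = m := by simpa using congrFun h 1
  subst hmn
  exact ⟨τ, H5.nonempty_equiv_of_character_eq _ _ (by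
    rw [h]; exact (funext (character_extRep K τ)).symm)⟩

end Cfsg.Agent.H6
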