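import Cfsg.Agent.H5.Basic
import Mathlib.Tactic

/-!
# Permutation characters and the regular character
-/

set_option autoImplicit false

open scoped ComplexConjugate
open Cfsg

namespace Cfsg.Agent.H6

theorem finiteDimensional_monoidAlgebra (k X : Type*) [Field k] [Finite X] :
    FiniteDimensional k (MonoidAlgebra k X) :=
  Module.Finite.of_basis (MonoidAlgebra.basis X k)

/-- the character of a permutation representation counts fixed points -/
theorem character_ofMulAction (k : Type*) [Field k] {G : Type*} [Group G] (X : Type*) [Finite X]
    [MulAction G X] (g : G) :
    (Representation.ofMulAction k G X).character g = (Nat.card (MulAction.fixedBy X g) : k) := by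
  classical
  have := Fintype.ofFinite X
  unfold Representation.character
  rw [LinearMap.trace_eq_matrix_trace k (MonoidAlgebra.basis X k), Matrix.trace]
  have h : ∀ x : X, Matrix.diag (LinearMap.toMatrix (MonoidAlgebra.basis X k)
      (MonoidAlgebra.basis X k) (Representation.ofMulAction k G X g)) x =
      if g • x = x then 1 else 0 := by
    intro x
    rw [Matrix.diag_apply, LinearMap.toMatrix_apply, MonoidAlgebra.basis_apply,
      Representation.ofMulAction_single, ← MonoidAlgebra.basis_apply, Module.Basis.repr_self,
      Finsupp.single_apply]
  simp only [h, Finset.sum_boole]
  congr 1
  rw [Nat.card_eq_fintype_card, Fintype.card_subtype]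
  rfl

/-- the fixed point count of a finite `G`-set is a character -/
theorem isCharacter_card_fixedBy {G : Type*} [Group G] (X : Type*) [Finite X] [MulAction G X] :
    IsCharacter G (fun g => (Nat.card (MulAction.fixedBy X g) : ℂ)) := by
  have := finiteDimensional_monoidAlgebra ℂ X
  have h := H5.isCharacter_character (Representation.ofMulAction ℂ G X)
  convert h using 2
  rw [character_ofMulAction]

theorem character_leftRegular (k : Type*) [Field k] {G : Type*} [Group G] [Finite G]
    [DecidableEq G] (g : G) :
    (Representation.leftRegular k G).character g = if g = 1 then (Nat.card G : k) else 0 := by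
  rw [character_ofMulAction]
  split_ifs with h
  · subst h
    simp
  · have : MulAction.fixedBy G g = ∅ := by
      ext x
      simp [h]
    simp [this]

/-- the regular character, as a function -/
theorem isCharacter_regular {G : Type*} [Group G] [Finite G] [DecidableEq G] :
    IsCharacter G (fun g => if g = 1 then (Nat.card G : ℂ) else 0) := by
  have := finiteDimensional_monoidAlgebra ℂ G
  have h := H5.isCharacter_character (Representation.leftRegular ℂ G)
  convert h using 2
  rw [character_leftRegular]

end Cfsg.Agent.H6
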