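/-
Bridge from the hypotheses of the frozen statements of Peterfalvi's section 4 to the ambient ones.
-/
import Cfsg.Agent.PF.P4_3

set_option autoImplicit false

open Cfsg Cfsg.Agent.H49 Cfsg.Agent.H54 Cfsg.Agent.H52

namespace Cfsg.Agent.H6A

variable {L : Type*} [Group L] [Fintype L]

theorem primeTIHyp_top (K W₁ W₂ : Subgroup L) [hK : K.Normal] (hKW₁ : K ⊓ W₁ = ⊥)
    (hKW₁' : K ⊔ W₁ = ⊤) (hW₁ : W₁ ≠ ⊥) (hW₁c : IsCyclic W₁)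
    (hHall : Nat.Coprime (Nat.card W₁) W₁.index) (hW₂ : W₂ ≠ ⊥) (hW₂c : IsCyclic W₂)
    (hW₂K : W₂ ≤ K) (hC : ∀ x ∈ W₁, x ≠ 1 → K ⊓ Subgroup.centralizer ({x} : Set L) = W₂)
    (hodd : Odd (Nat.card ↥(W₁ ⊔ W₂))) : PrimeTIHyp ⊤ K W₁ W₂ :=
  ⟨⟨hKW₁', hKW₁, le_top.trans (normal_iff_top_le_norm.1 hK)⟩, hW₁,
    by rwa [Subgroup.relIndex_top_right], hW₁c, hW₂, hW₂K, hW₂c, hC, hodd⟩

variable {W₁ W₂ : Subgroup L}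

/-- restriction of a linear character of `W₁ ⊔ W₂` to `W₁` -/
def dualL (ω : ↥(W₁ ⊔ W₂) →* ℂˣ) : Dual W₁ := ω.comp (Subgroup.inclusion le_sup_left)

/-- restriction of a linear character of `W₁ ⊔ W₂` to `W₂` -/
def dualR (ω : ↥(W₁ ⊔ W₂) →* ℂˣ) : Dual W₂ := ω.comp (Subgroup.inclusion le_sup_right)

theorem omega_dualL_dualR (hinf : W₁ ⊓ W₂ = ⊥) (hc : ∀ a ∈ W₁, ∀ b ∈ W₂, a * b = b * a)
    (ω : ↥(W₁ ⊔ W₂) →* ℂˣ) (w : ↥(W₁ ⊔ W₂)) : omega W₁ W₂ (dualL ω) (dualR ω) w = ω w := by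
  obtain ⟨x, hx⟩ := w
  obtain ⟨a, ha, b, hb, rfl⟩ := exists_mul_of_mem_sup hc hx
  rw [omega_apply_mul hinf _ _ ha hb, dualL, dualR, MonoidHom.comp_apply, MonoidHom.comp_apply,
    ← Units.val_mul, ← map_mul]
  rfl

theorem exists_dualL_dualR (hinf : W₁ ⊓ W₂ = ⊥) (hc : ∀ a ∈ W₁, ∀ b ∈ W₂, a * b = b * a)
    (i : Dual W₁) (j : Dual W₂) : ∃ ω : ↥(W₁ ⊔ W₂) →* ℂˣ, dualL ω = i ∧ dualR ω = j := by
  obtain ⟨ω, hω⟩ := H5.exists_monoidHom_of_degree_one (irr_char (omega_irr' hinf hc i j)).1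
    (omega_apply_one hinf i j)
  refine ⟨ω, omega_inj' hinf hc (ext_supp (omega_supp' _ _) (omega_supp' _ _) fun x hx => ?_)⟩
  exact (omega_dualL_dualR hinf hc ω ⟨x, hx⟩).trans (congrFun hω ⟨x, hx⟩).symm

end Cfsg.Agent.H6A
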